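import Mathlib
import Cfsg.Agent.Lib.Helper25.ACStmt
import Cfsg.Agent.Lib.Helper25.ACOddStmt
import Cfsg.Agent.S0016

/-!
# S3911 piece CYCODD (helper25's call), hypothesis-free: a `p`-group, `p` odd, with a unique
subgroup of order `p` is cyclic.  Corollary of the landed statement S0016.
-/

set_option autoImplicit false

namespace Cfsg.Agent.Lib.Helper88.AOCYCODD

open Cfsg.Agent.Lib.Helper25.ACStmt Cfsg.Agent.Lib.Helper25.ACOddStmt

universe u

/-- a subgroup of order `p` equals `N` if `N` has order `p` and contains all elements of order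
`p` -/
theorem eq_of_card {P : Type u} [Group P] [Finite P] (p : ℕ) [Fact p.Prime]
    (N : Subgroup P) (hN : Nat.card ↥N = p) (hall : ∀ x : P, orderOf x = p → x ∈ N)
    (H : Subgroup P) (hH : Nat.card ↥H = p) : H = N := by
  have hp : p.Prime := Fact.out
  have hle : H ≤ N := by
    intro x hx
    by_cases hx1 : x = 1
    · rw [hx1]; exact N.one_mem
    · refine hall x ?_
      have hdvd : orderOf x ∣ p := by
        have h1 : orderOf (⟨x, hx⟩ : ↥H) ∣ Nat.card ↥H := orderOf_dvd_natCard _
        rw [hH] at h1
        have h2 : orderOf (⟨x, hx⟩ : ↥H) = orderOf x := by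
          rw [← Subgroup.orderOf_coe]
        rw [← h2]; exact h1
      rcases (Nat.dvd_prime hp).mp hdvd with h | h
      · exact absurd (orderOf_eq_one_iff.mp h) hx1
      · exact h
  exact Subgroup.eq_of_le_of_card_ge hle (by rw [hN, hH])

/-- CYCODD without hypotheses -/
theorem free : CycOdd.{u} := by
  intro P _ _ p _ hp2 hP N hN hall
  have huniq : ∀ H K : Subgroup P, Nat.card H = p → Nat.card K = p → H = K := by
    intro H K hH hK
    rw [eq_of_card p N hN hall H hH, eq_of_card p N hN hall K hK]
  rcases Cfsg.Agent.S0016.result p hP huniq with h | ⟨h, _⟩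
  · exact h
  · exact absurd h hp2

/-- CYCODD with the call's signature (the hypotheses are not used) -/
theorem main (_hAb : AbCyc.{u}) (_hStep : CycStep.{u}) (_hP : PAb.{u}) : CycOdd.{u} := free

end Cfsg.Agent.Lib.Helper88.AOCYCODD
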