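import Mathlib
import Cfsg.Agent.Lib.Helper41.TMStmt

/-!
# S5987 piece FXTYPE (helper88)

The type of the fixed space for the minus form:
`Plus (Fx x) ↔ Even i ∧ Odd ((2 d - finrank Fx) / i)`.
-/

set_option autoImplicit false

universe u

namespace Cfsg.Agent.Lib.Helper88.TMFXTYPE

open Cfsg.Agent.Lib.Helper41.TMStmt
open Cfsg.Agent.Lib.Helper45.OMiStmt (M Aniso FxM NDegM StabM)
open Cfsg.Agent.Lib.Helper41.TMTwoStmt (TSubM PlusM FixTSM)

theorem main (hTop : Top.{u}) (hFix : FixND.{u}) (hPerp : Perp.{u}) (hInv : InvDim.{u})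
    (hHalf : HalfOdd.{u}) (hTE : TypeEven.{u}) (hTwo : TwoMinusG.{u}) : FxType.{u} := by
  intro F _ _ a₀ b₀ hab p _ _ d r _ hd hr2 hrp x hx hxr
  have hND : NDegM d F a₀ b₀ (FxM (x : Matrix (M d) (M d) F)) :=
    hFix F a₀ b₀ hab p d r hrp x hx hxr
  obtain ⟨E, horth, hEND, hinf, hdim, hstab⟩ :=
    hPerp F a₀ b₀ hab d hd (FxM (x : Matrix (M d) (M d) F)) hND
  have hStabFx : StabM (x : Matrix (M d) (M d) F) (FxM (x : Matrix (M d) (M d) F)) := by
    rintro _ ⟨v, hv, rfl⟩
    have hv' : Matrix.toLin' (x : Matrix (M d) (M d) F) v = v := by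
      have h1 := LinearMap.mem_ker.mp (show v ∈ LinearMap.ker
        (Matrix.toLin' (x : Matrix (M d) (M d) F) - LinearMap.id) from hv)
      rw [LinearMap.sub_apply, LinearMap.id_apply, sub_eq_zero] at h1
      exact h1
    rw [hv']
    exact hv
  have hStabE : StabM (x : Matrix (M d) (M d) F) E := hstab x hx hStabFx
  have hEinf : E ⊓ FxM (x : Matrix (M d) (M d) F) = ⊥ := by rw [inf_comm]; exact hinf
  have hcardM : Module.finrank F (M d → F) = 2 * d := by
    rw [Module.finrank_fintype_fun_eq_card]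
    simp only [Fintype.card_sum, Fintype.card_fin]
    omega
  have hsup : FxM (x : Matrix (M d) (M d) F) ⊔ E = ⊤ := by
    apply Submodule.eq_top_of_finrank_eq
    have h1 := Submodule.finrank_sup_add_finrank_inf_eq (FxM (x : Matrix (M d) (M d) F)) E
    rw [hinf, finrank_bot, add_zero] at h1
    rw [h1, hdim, hcardM]
  have hfinE : Module.finrank F ↥E =
      2 * d - Module.finrank F ↥(FxM (x : Matrix (M d) (M d) F)) := by omega
  have horth' : ∀ u ∈ E, ∀ v ∈ FxM (x : Matrix (M d) (M d) F),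
      QuadraticMap.polar (Cfsg.quadFormMinus (d - 1) F a₀ b₀) u v = 0 := fun u hu v hv => by
    rw [QuadraticMap.polar_comm]; exact horth v hv u hu
  -- `Fx` and `E` are not both of plus type
  have hnot : PlusM d F a₀ b₀ (FxM (x : Matrix (M d) (M d) F)) → PlusM d F a₀ b₀ E → False := by
    rintro ⟨U₁, hU₁, hts₁, hfin₁⟩ ⟨U₂, hU₂, hts₂, hfin₂⟩
    apply (hTop F a₀ b₀ hab d).2
    refine ⟨U₁ ⊔ U₂, le_top, ?_, ?_⟩
    · intro w hw
      obtain ⟨u₁, hu₁, u₂, hu₂, rfl⟩ := Submodule.mem_sup.mp hw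
      have h1 := horth u₁ (hU₁ hu₁) u₂ (hU₂ hu₂)
      unfold QuadraticMap.polar at h1
      rw [hts₁ u₁ hu₁, hts₂ u₂ hu₂, sub_zero, sub_zero] at h1
      exact h1
    · have h1 := Submodule.finrank_sup_add_finrank_inf_eq U₁ U₂
      have h2 : U₁ ⊓ U₂ = ⊥ := by
        rw [eq_bot_iff, ← hinf]
        exact inf_le_inf hU₁ hU₂
      rw [h2, finrank_bot, add_zero] at h1
      rw [h1, finrank_top, hcardM]
      omega
  constructor
  · intro hP
    by_cases hi : Odd (orderOf ((Fintype.card F : ℕ) : ZMod r))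
    · exfalso
      obtain ⟨U, hUE, _, hUts, hUdim⟩ :=
        hHalf F a₀ b₀ hab p d r hr2 hrp hi x hx hxr E hStabE hEND hEinf
      exact hnot hP ⟨U, hUE, hUts, hUdim⟩
    · rw [Nat.not_odd_iff_even] at hi
      refine ⟨hi, ?_⟩
      rw [← Nat.not_even_iff_odd, ← hfinE]
      intro he
      exact hnot hP ((hTE F a₀ b₀ hab p d r hr2 hrp hi x hx hxr E hStabE hEND hEinf).2 he)
  · rintro ⟨hi, hodd⟩
    have hnE : ¬ PlusM d F a₀ b₀ E := by
      intro hE
      have he := (hTE F a₀ b₀ hab p d r hr2 hrp hi x hx hxr E hStabE hEND hEinf).1 hE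
      rw [hfinE] at he
      exact (Nat.not_even_iff_odd.mpr hodd) he
    have hevE : Even (Module.finrank F ↥E) := by
      have hdvd := hInv F a₀ b₀ hab p d r hrp x hxr E hStabE hEinf
      exact (even_iff_two_dvd.mp hi).trans hdvd |> even_iff_two_dvd.mpr
    rcases hTwo F a₀ b₀ hab d hd E (FxM (x : Matrix (M d) (M d) F)) hEND hND horth'
      (by rw [sup_comm]; exact hsup) hevE with h | h
    · exact (hnE h).elim
    · exact h

end Cfsg.Agent.Lib.Helper88.TMFXTYPE
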